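import Cfsg.Agent.Lib.KnownSimple.MultM.M24V.Def3

/-!
# A coset enumeration: the facts
-/

set_option autoImplicit false

namespace Cfsg.Agent.Lib.KnownSimple.MultM.M24V

open Cfsg Cfsg.Spor Cfsg.Agent.Lib.Compute Cfsg.Agent.Lib.KnownSimple.PE Cfsg.Agent.Lib.KnownSimple.Leech
open Cfsg.Agent.Lib.KnownSimple Cfsg.Agent.Lib.KnownSimple.AutRigid Cfsg.Agent.Lib.KnownSimple.Pres

set_option maxHeartbeats 0 in
set_option maxRecDepth 100000 in
theorem fc3_40 : chunk (padB K3 (Cert.factOK C3)) 2584 40 = true := by decide +kernel
set_option maxHeartbeats 0 in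
set_option maxRecDepth 100000 in
theorem fc3_41 : chunk (padB K3 (Cert.factOK C3)) 2584 41 = true := by decide +kernel
set_option maxHeartbeats 0 in
set_option maxRecDepth 100000 in
theorem fc3_42 : chunk (padB K3 (Cert.factOK C3)) 2584 42 = true := by decide +kernel
set_option maxHeartbeats 0 in
set_option maxRecDepth 100000 in
theorem fc3_43 : chunk (padB K3 (Cert.factOK C3)) 2584 43 = true := by decide +kernel
set_option maxHeartbeats 0 in
set_option maxRecDepth 100000 in
theorem fc3_44 : chunk (padB K3 (Cert.factOK C3)) 2584 44 = true := by decide +kernel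
set_option maxHeartbeats 0 in
set_option maxRecDepth 100000 in
theorem fc3_45 : chunk (padB K3 (Cert.factOK C3)) 2584 45 = true := by decide +kernel
set_option maxHeartbeats 0 in
set_option maxRecDepth 100000 in
theorem fc3_46 : chunk (padB K3 (Cert.factOK C3)) 2584 46 = true := by decide +kernel
set_option maxHeartbeats 0 in
set_option maxRecDepth 100000 in
theorem fc3_47 : chunk (padB K3 (Cert.factOK C3)) 2584 47 = true := by decide +kernel
set_option maxHeartbeats 0 in
set_option maxRecDepth 100000 in
theorem fc3_48 : chunk (padB K3 (Cert.factOK C3)) 2584 48 = true := by decide +kernel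
set_option maxHeartbeats 0 in
set_option maxRecDepth 100000 in
theorem fc3_49 : chunk (padB K3 (Cert.factOK C3)) 2584 49 = true := by decide +kernel
set_option maxHeartbeats 0 in
set_option maxRecDepth 100000 in
theorem fc3_50 : chunk (padB K3 (Cert.factOK C3)) 2584 50 = true := by decide +kernel
set_option maxHeartbeats 0 in
set_option maxRecDepth 100000 in
theorem fc3_51 : chunk (padB K3 (Cert.factOK C3)) 2584 51 = true := by decide +kernel
set_option maxHeartbeats 0 in
set_option maxRecDepth 100000 in
theorem fc3_52 : chunk (padB K3 (Cert.factOK C3)) 2584 52 = true := by decide +kernel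
set_option maxHeartbeats 0 in
set_option maxRecDepth 100000 in
theorem fc3_53 : chunk (padB K3 (Cert.factOK C3)) 2584 53 = true := by decide +kernel
set_option maxHeartbeats 0 in
set_option maxRecDepth 100000 in
theorem fc3_54 : chunk (padB K3 (Cert.factOK C3)) 2584 54 = true := by decide +kernel
set_option maxHeartbeats 0 in
set_option maxRecDepth 100000 in
theorem fc3_55 : chunk (padB K3 (Cert.factOK C3)) 2584 55 = true := by decide +kernel
set_option maxHeartbeats 0 in
set_option maxRecDepth 100000 in
theorem fc3_56 : chunk (padB K3 (Cert.factOK C3)) 2584 56 = true := by decide +kernel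

end Cfsg.Agent.Lib.KnownSimple.MultM.M24V
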