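import Cfsg.Agent.Lib.KnownSimple.MultM.M24V.Fact3_0
import Cfsg.Agent.Lib.KnownSimple.MultM.M24V.Fact3_1

/-!
# A coset enumeration
-/

set_option autoImplicit false

namespace Cfsg.Agent.Lib.KnownSimple.MultM.M24V

open Cfsg Cfsg.Spor Cfsg.Agent.Lib.Compute Cfsg.Agent.Lib.KnownSimple.PE Cfsg.Agent.Lib.KnownSimple.Leech
open Cfsg.Agent.Lib.KnownSimple Cfsg.Agent.Lib.KnownSimple.AutRigid Cfsg.Agent.Lib.KnownSimple.Pres


theorem facts3 : allBelow (Cert.factOK C3) K3 = true :=
  allBelow_of_pad (m := 57) (s := 2584) (by norm_num) (fun c hc => by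
    interval_cases c
    · exact fc3_0
    · exact fc3_1
    · exact fc3_2
    · exact fc3_3
    · exact fc3_4
    · exact fc3_5
    · exact fc3_6
    · exact fc3_7
    · exact fc3_8
    · exact fc3_9
    · exact fc3_10
    · exact fc3_11
    · exact fc3_12
    · exact fc3_13
    · exact fc3_14
    · exact fc3_15
    · exact fc3_16
    · exact fc3_17
    · exact fc3_18
    · exact fc3_19
    · exact fc3_20
    · exact fc3_21
    · exact fc3_22
    · exact fc3_23
    · exact fc3_24
    · exact fc3_25
    · exact fc3_26
    · exact fc3_27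
    · exact fc3_28
    · exact fc3_29
    · exact fc3_30
    · exact fc3_31
    · exact fc3_32
    · exact fc3_33
    · exact fc3_34
    · exact fc3_35
    · exact fc3_36
    · exact fc3_37
    · exact fc3_38
    · exact fc3_39
    · exact fc3_40
    · exact fc3_41
    · exact fc3_42
    · exact fc3_43
    · exact fc3_44
    · exact fc3_45
    · exact fc3_46
    · exact fc3_47
    · exact fc3_48
    · exact fc3_49
    · exact fc3_50
    · exact fc3_51
    · exact fc3_52
    · exact fc3_53
    · exact fc3_54
    · exact fc3_55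
    · exact fc3_56
  )
set_option maxHeartbeats 0 in
set_option maxRecDepth 100000 in
theorem ec3_0 : chunk (padB 253 (fun i => allBelow (fun g => Cert.entry C3 253 K3 g i) 5)) 2584 0 = true := by decide +kernel

theorem entries3 : allBelow (fun i => allBelow (fun g => Cert.entry C3 253 K3 g i) 5) 253 = true :=
  allBelow_of_pad (m := 1) (s := 2584) (by norm_num) (fun c hc => by
    interval_cases c
    · exact ec3_0
  )

end Cfsg.Agent.Lib.KnownSimple.MultM.M24V
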