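import Cfsg.Agent.Lib.KnownSimple.MultM.M23V.Main
import Cfsg.Agent.Lib.KnownSimple.MultM.M24V.CertAll

/-!
# The Schur multiplier
-/

set_option autoImplicit false

namespace Cfsg.Agent.Lib.KnownSimple.MultM.M24V

open Cfsg Cfsg.Spor Cfsg.Agent.Lib.Compute Cfsg.Agent.Lib.KnownSimple.PE Cfsg.Agent.Lib.KnownSimple.Leech
open Cfsg.Agent.Lib.KnownSimple Cfsg.Agent.Lib.KnownSimple.AutRigid Cfsg.Agent.Lib.KnownSimple.Pres
open Cfsg.Agent.Lib.KnownSimple.MultC
open Cfsg.Agent.Lib.Golay Cfsg.Agent.Lib.KnownSimple.CodeCalc Cfsg.Agent.Lib.KnownSimple.MathieuData Cfsg.Agent.Lib.KnownSimple.MathieuFacts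
open Cfsg.Agent.Lib.KnownSimple.MathieuGen Cfsg.Agent.Lib.KnownSimple.MathieuOut Cfsg.Agent.Lib.KnownSimple.MultM

/-- A word. -/
def wS0 : List ℕ := [0,2,4,10,8,10,4,0,2,6,2,8,6,10]
theorem hS0 : ∃ u ∈ stabOf ρ h0, ψ u = 1 * W * 1⁻¹ := by
  have hw : ∀ l ∈ wS0, l < 2 * d := by decide +kernel
  refine ⟨ev v wS0, word_mem_stab C hρ hw h0 (by decide +kernel), ?_⟩
  rw [one_mul, inv_one, mul_one]
  exact (toX_word enc CN hρ0 hw (isCode_ppm (by decide +kernel)) (by decide +kernel)).symm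
/-- A word. -/
def wS1 : List ℕ := [8,2,6,2,10,4,6,10,0,4,2,10,0]
theorem hS1 : ∃ u ∈ stabOf ρ h0, ψ u = 1 * U * 1⁻¹ := by
  have hw : ∀ l ∈ wS1, l < 2 * d := by decide +kernel
  refine ⟨ev v wS1, word_mem_stab C hρ hw h0 (by decide +kernel), ?_⟩
  rw [one_mul, inv_one, mul_one]
  exact (toX_word enc CN hρ0 hw (isCode_ppm (by decide +kernel)) (by decide +kernel)).symm
/-- A word. -/
def wS2 : List ℕ := [0,2,6,8,6,10,0,4,6,4,6,0]
theorem hS2 : ∃ u ∈ stabOf ρ h0, ψ u = 1 * X * 1⁻¹ := by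
  have hw : ∀ l ∈ wS2, l < 2 * d := by decide +kernel
  refine ⟨ev v wS2, word_mem_stab C hρ hw h0 (by decide +kernel), ?_⟩
  rw [one_mul, inv_one, mul_one]
  exact (toX_word enc CN hρ0 hw (isCode_ppm (by decide +kernel)) (by decide +kernel)).symm
theorem hTM : ({W, U, X} : Set P24) ⊆ M23 := by
  rintro t (rfl | rfl | rfl)
  · exact mem_of_t23 (by decide +kernel : tM23 pW = true)
  · exact mem_of_t23 (by decide +kernel : tM23 pU = true)
  · exact mem_of_t23 (by decide +kernel : tM23 pX = true)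
theorem hMF : MF (stabOf ρ h0) := by
  refine MF_stab_of_words ψ hψinj ρ h0 (htr_right htr) M23 Cfsg.Agent.Lib.KnownSimple.MultM.M23V.mf 1 _ hTM gen_M23 ?_ ?_
  · rintro t (rfl | rfl | rfl)
    · exact hS0
    · exact hS1
    · exact hS2
  · rw [card_P, card_M23]
    rfl

theorem upperP (Γ : Type) [Group Γ] [Finite Γ] (σ : Γ →* P) (hσ : IsStemExtension σ) :
    ∃ π : Multiplicative (ZMod 1) →* σ.ker, Function.Surjective π :=
  upperV C hP A B hcomm hρ hMF hrr.1 hrr.2 hRLe hokR hloopR (Q := 47) (P := 7) (Qr := 41) (by decide +kernel) (by decide +kernel)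
    hTree hE hF (qs := 0) (m := 1) (by decide +kernel) hcert Γ σ hσ

theorem multP : HasCyclicSchurMultiplier P 1 := hasCyclic_one_of upperP

theorem mfP : MF P := MF_of_upper hP A B hcomm upperP

theorem mult : HasCyclicSchurMultiplier ↥M24 1 := hasSchur_congr e multP

theorem mf : MF ↥M24 := mfP.congr e

end Cfsg.Agent.Lib.KnownSimple.MultM.M24V
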