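import Cfsg.Agent.Lib.KnownSimple.MultC.TabP

/-!
# The table
-/

set_option autoImplicit false

namespace Cfsg.Agent.Lib.KnownSimple.MultM.M24V

open Cfsg.Agent.Lib.KnownSimple.MultC

set_option maxRecDepth 1000000 in
/-- The table of the letters. -/
def tb : ZN := (.node 1432130243194414280176207795609149187501512129743586909336920372704554671530249494954457401688359683787617889948158217929710252145390993164641448820737 (.node 1022950174377183527022898723275053261440651549415779443552935824641047255830161112059472204224436608545514627754789575003773522358746369170715533508610 (.node 1022950174186644209292616688254156484223502783397392717396443860464456721394939007058120412389961436635150778496985401781656329885970385429353527377930 (.node 4296390730583574259408372415304978710893060693738755253319431364847365788934090388043838770999089457400529900326558343238367413503881339501989279563792 .nil .nil) .nil) (.node 1227540209166877539487114977823597342382157498669287305261676555016862132393448524903224904944528008351020944992020251249195189183796805632212333297677 .nil .nil)) (.node 1432130243242049109572733048360312780105247652768634270577034486760363705572423762870066849438248106685642051380467377337258935490551910837698087813131 (.node 1636720278841535223186416296282857975265972030373447830714920987357742512432908180736441837193189924712420904588477941689503771420223589113425148706819 (.node 3478030591710607186862290146280310725888952458690128167317549325641392263494442256385277528157301977707126280871489057333558459953731394191048993538066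 .nil .nil) .nil) (.node 4705570800067692625177756434646562604006068953656043587460384039454671694912405852354339982369981456767637686028671842932868206903469027458747613839380 .nil .nil)))
set_option maxRecDepth 1000000 in
/-- The tree: parents. -/
def parT : ZN := (.node 10220976583839587880297337760936175693458798975216633755025445229390670842325135318546569898609391070880007716864 .nil .nil)
set_option maxRecDepth 1000000 in
/-- The tree: letters. -/
def genT : ZN := (.node 6012360753245501674131996200375845296976059300705642711619500105133606365025645737447072049111921253769768075264 .nil .nil)

end Cfsg.Agent.Lib.KnownSimple.MultM.M24V
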